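import Cfsg.Agent.H304.GeoL
import Cfsg.Agent.H883.BS.Out

/-!
# S5733 (Boston-Shalev), BS-R1: the geometric maximal subgroups of `PSL_n(q)`, `n` large (helper680, after
helper855's `H855/Dg/GeoPsl` and helper304's `H304/GeoL`)

`geoD_psl` : for `n ≥ 40` a maximal subgroup of `PSL_n(q)` is reducible, or in the residual class, or misses a
large prime for at least `n / 200` exponents.
-/

set_option autoImplicit false
set_option linter.style.haveILetI false

namespace Cfsg.Agent.H680.BS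

open Matrix Cfsg Cfsg.Geo Cfsg.Agent.H728.DghpNum Cfsg.Agent.H304.Ppd Cfsg.Agent.H304.PslT
  Cfsg.Agent.H251.GeoCard Cfsg.Agent.OrdDiv Cfsg.Agent.H851.Dg Cfsg.Agent.H304 Cfsg.Agent.H883.BS

/-! ### The sets of exponents -/

/-- one of two consecutive odd numbers which `r` does not divide -/
def pick (r j : ℕ) : ℕ := if r ∣ 4 * j + 1 then 4 * j + 3 else 4 * j + 1

theorem pick_cases (r j : ℕ) : pick r j = 4 * j + 1 ∨ pick r j = 4 * j + 3 := by
  unfold pick; split_ifs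
  · exact Or.inr rfl
  · exact Or.inl rfl

theorem pick_injective (r : ℕ) : Function.Injective (pick r) := by
  intro i j h
  rcases pick_cases r i with h1 | h1 <;> rcases pick_cases r j with h2 | h2 <;> omega

theorem pick_not_dvd {r : ℕ} (hr : r.Prime) (j : ℕ) : ¬ r ∣ pick r j := by
  unfold pick
  split_ifs with h
  · intro h1
    have h2 : r ∣ 2 := by
      have := Nat.dvd_sub h1 h
      rwa [show 4 * j + 3 - (4 * j + 1) = 2 by omega] at this
    have h3 : r = 2 := ((Nat.dvd_prime Nat.prime_two).1 h2).resolve_left hr.one_lt.ne'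
    rw [h3] at h
    omega
  · exact h

/-- odd exponents prime to `r` -/
def Dodd (r n : ℕ) : Finset ℕ := (Finset.Ico (n / 8 + 1) (n / 4)).image (pick r)

theorem card_Dodd (r n : ℕ) : (Dodd r n).card = n / 4 - (n / 8 + 1) := by
  rw [Dodd, Finset.card_image_of_injective _ (pick_injective r), Nat.card_Ico]

theorem mem_Dodd {r n e : ℕ} (h : e ∈ Dodd r n) : Odd e ∧ n < 2 * e ∧ e ≤ n ∧ (r.Prime → ¬ r ∣ e) := by
  obtain ⟨j, hj, rfl⟩ := Finset.mem_image.1 h
  rw [Finset.mem_Ico] at hj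
  refine ⟨?_, ?_, ?_, fun hr => pick_not_dvd hr j⟩
  · rcases pick_cases r j with h1 | h1
    · exact ⟨2 * j, by omega⟩
    · exact ⟨2 * j + 1, by omega⟩
  · rcases pick_cases r j with h1 | h1 <;> omega
  · rcases pick_cases r j with h1 | h1 <;> omega

/-- even exponents -/
def Dev (n : ℕ) : Finset ℕ := (Finset.Ico (n / 4 + 1) (n / 2)).image (2 * ·)

theorem card_Dev (n : ℕ) : (Dev n).card = n / 2 - (n / 4 + 1) := by
  rw [Dev, Finset.card_image_of_injective _ (fun a b h => by simpa using h), Nat.card_Ico]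

theorem mem_Dev {n e : ℕ} (h : e ∈ Dev n) : Even e ∧ n < 2 * e ∧ e ≤ n := by
  obtain ⟨j, hj, rfl⟩ := Finset.mem_image.1 h
  rw [Finset.mem_Ico] at hj
  exact ⟨even_two_mul j, by omega, by omega⟩

variable {F : Type*} [Field F] [Fintype F] {n : ℕ}

/-- the missing large primes -/
def OutM (M : Subgroup (Matrix.ProjectiveSpecialLinearGroup (Fin n) F)) : Prop :=
  OutD (.psl n (Fintype.card F)) M

theorem outM_of {M : Subgroup (Matrix.ProjectiveSpecialLinearGroup (Fin n) F)} (D : Finset ℕ) (hD : n ≤ 200 * D.card)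
    (h : ∀ e ∈ D, n < 2 * e ∧ e ≤ n ∧ ∃ u, Ppd (Fintype.card F) e u ∧ ∀ x ∈ pre M, orderOf x = u → False) : OutM M := by
  refine ⟨D, hD, fun e he => ?_⟩
  obtain ⟨h1, h2, u, hP, h3⟩ := h e he
  refine ⟨u, ⟨hP.prime, hP.ord, h1, h2⟩, fun hd => ?_⟩
  obtain ⟨x, hx, hxM⟩ := exists_of_dvd hP.prime hd
  exact h3 x hxM hx

omit [Fintype F] in
theorem elt_of_card {M : Subgroup (Matrix.ProjectiveSpecialLinearGroup (Fin n) F)} {u : ℕ} {X : Subgroup (GL (Fin n) F)}
    (hX : pre M ≤ X) (h : ¬ u ∣ Nat.card X) : ∀ x ∈ pre M, orderOf x = u → False := by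
  intro x hx hxu
  apply h
  rw [← hxu, ← Subgroup.orderOf_mk x (hX hx)]
  exact _root_.orderOf_dvd_natCard _

/-- a prime for an odd exponent -/
theorem exists_odd {q e : ℕ} (hq : 2 ≤ q) (he : Odd e) (h3 : 3 ≤ e) : ∃ u, Ppd q e u ∧ 2 * e < u := by
  obtain ⟨u, hu⟩ := exists_ppd hq h3 (by
    rintro ⟨-, h6⟩
    rw [h6] at he
    exact absurd he (by decide))
  exact ⟨u, hu, by
    obtain ⟨j, hj⟩ := hu.dvd_pred
    have hlt := hu.lt
    have h1 : ¬ Even u := by
      intro h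
      have := (hu.prime.even_iff).mp h
      omega
    rw [Nat.not_even_iff_odd] at h1
    obtain ⟨c, hc⟩ := h1
    obtain ⟨d, hd⟩ := he
    have h2 : Even j := by
      by_contra h4
      rw [Nat.not_even_iff_odd] at h4
      obtain ⟨m, hm⟩ := h4
      have h5 : Odd (e * j) := by
        rw [Nat.odd_mul]
        exact ⟨⟨d, hd⟩, ⟨m, hm⟩⟩
      rw [← hj] at h5
      obtain ⟨k, hk⟩ := h5
      omega
    obtain ⟨m, hm⟩ := h2
    have hm0 : 0 < m := by
      rcases Nat.eq_zero_or_pos m with h | h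
      · rw [hm, h] at hj; omega
      · exact h
    have h6 : e * 2 ≤ e * j := Nat.mul_le_mul_left _ (by omega)
    omega⟩

/-- the general scheme for odd exponents -/
theorem outM_odd (hn : 40 ≤ n) {M : Subgroup (Matrix.ProjectiveSpecialLinearGroup (Fin n) F)} (r : ℕ)
    (h : ∀ e u, Ppd (Fintype.card F) e u → Odd e → n < 2 * e → e ≤ n → (r.Prime → ¬ r ∣ e) → 2 * e < u →
      ∀ x ∈ pre M, orderOf x = u → False) : OutM M := by
  have hq : 2 ≤ Fintype.card F := Fintype.one_lt_card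
  refine outM_of (Dodd r n) (by rw [card_Dodd]; omega) fun e he => ?_
  obtain ⟨h1, h2, h3, h4⟩ := mem_Dodd he
  obtain ⟨u, hP, h5⟩ := exists_odd hq h1 (by omega)
  exact ⟨h2, h3, u, hP, h e u hP h1 h2 h3 h4 h5⟩

theorem dvd_iff' {q e u : ℕ} (hP : Ppd q e u) {m : ℕ} (h : Div u q m) : e ≤ m := by
  obtain ⟨i, h1, h2, h3⟩ := h
  have := Nat.le_of_dvd h1 ((hP.dvd_iff i).mp h3)
  omega

theorem class2 (hn : 40 ≤ n) {M : Subgroup (Matrix.ProjectiveSpecialLinearGroup (Fin n) F)}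
    {t m : ℕ} {D : Fin t → Submodule F (Fin n → F)} (htm : t * m = n) (hD : IsMDecomposition m D)
    (hM : pre M ≤ decompositionStabilizer D) : OutM M := by
  refine outM_odd hn 1 fun e u hP ho h2 h3 _ h1 => elt_of_card hM fun hd => ?_
  have ht := hD.two_le
  have hm := hD.pos
  have hF : ¬ u ∣ Nat.card F := by rw [Nat.card_eq_fintype_card]; exact hP.ndvd
  rcases decomp hD hP.prime hF hd with h5 | h5
  · have : t ≤ n := by rw [← htm]; exact Nat.le_mul_of_pos_right t hm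
    omega
  · rw [Nat.card_eq_fintype_card] at h5
    have h6 := dvd_iff' hP h5
    have : 2 * m ≤ n := by rw [← htm]; exact Nat.mul_le_mul_right m ht
    omega

theorem class4 (hn : 40 ≤ n) {M : Subgroup (Matrix.ProjectiveSpecialLinearGroup (Fin n) F)}
    {n₁ n₂ : ℕ} {e : Fin n ≃ Fin n₁ × Fin n₂} {P : GL (Fin n) F} (h1 : 2 ≤ n₁) (h12 : n₁ < n₂) (hnn : n₁ * n₂ = n)
    (hM : pre M ≤ tensorProductSubgroup n₁ n₂ e P) : OutM M := by
  refine outM_odd hn 1 fun e u hP ho h3 h4 _ h2 => elt_of_card hM fun hd => ?_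
  have hF : ¬ u ∣ Nat.card F := by rw [Nat.card_eq_fintype_card]; exact hP.ndvd
  have h6 := tensor _ _ hP.prime hF hd
  rw [Nat.card_eq_fintype_card] at h6
  have h7 := dvd_iff' hP h6
  rw [max_eq_right h12.le] at h7
  have : 2 * n₂ ≤ n := by rw [← hnn]; exact Nat.mul_le_mul_right n₂ h1
  omega

theorem class7 (hn : 40 ≤ n) {M : Subgroup (Matrix.ProjectiveSpecialLinearGroup (Fin n) F)}
    {m t : ℕ} {e : Fin n ≃ (Fin t → Fin m)} {P : GL (Fin n) F} (hm : 3 ≤ m) (ht : 2 ≤ t) (hmt : m ^ t = n)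
    (hM : pre M ≤ tensorWreathSubgroup m t e P) : OutM M := by
  refine outM_odd hn 1 fun e u hP ho h3 h4 _ h2 => elt_of_card hM fun hd => ?_
  have hF : ¬ u ∣ Nat.card F := by rw [Nat.card_eq_fintype_card]; exact hP.ndvd
  rcases wreath _ _ hP.prime hF hd with h6 | h6
  · have : t < m ^ t := Nat.lt_pow_self (by omega)
    omega
  · rw [Nat.card_eq_fintype_card] at h6
    have h7 := dvd_iff' hP h6
    have h8 : m ^ 2 ≤ m ^ t := Nat.pow_le_pow_right (by omega) ht
    have h9 : 2 * m ≤ m ^ 2 := by rw [pow_two]; exact Nat.mul_le_mul_right m (by omega)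
    omega

theorem class3 (hn : 40 ≤ n) {M : Subgroup (Matrix.ProjectiveSpecialLinearGroup (Fin n) F)}
    {r : ℕ} {K : Subalgebra F (Matrix (Fin n) (Fin n) F)} (hr : r.Prime) (hrn : r ∣ n) (hK : IsFieldSubalgebra r K)
    (hM : pre M ≤ subalgebraNormalizer K) : OutM M := by
  haveI : Nonempty (Fin n) := ⟨⟨0, by omega⟩⟩
  refine outM_odd hn r fun e u hP ho h3 h4 hre h2 => elt_of_card hM fun hd => ?_
  have hF : ¬ u ∣ Nat.card F := by rw [Nat.card_eq_fintype_card]; exact hP.ndvd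
  have hrn' : r ≤ n := Nat.le_of_dvd (by omega) hrn
  rcases extension hr hK hP.prime hF hd with h5 | ⟨i, h5, h6, h8⟩
  · omega
  · rw [Nat.card_eq_fintype_card, ← pow_mul, hP.dvd_iff] at h8
    rw [Fintype.card_fin] at h6
    have h9 : r * i ≤ n := (Nat.mul_le_mul_left r h6).trans (Nat.mul_div_le n r)
    have h10 : 0 < r * i := Nat.mul_pos hr.pos (by omega)
    obtain ⟨j, hj⟩ := h8
    have hj1 : j = 1 := by
      have hj0 : 0 < j := by
        rcases Nat.eq_zero_or_pos j with h | h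
        · rw [h, mul_zero] at hj; omega
        · exact h
      by_contra hj1
      have : e * 2 ≤ e * j := Nat.mul_le_mul_left _ (by omega)
      omega
    rw [hj1, mul_one] at hj
    exact hre hr ⟨i, hj.symm⟩

theorem class5 (hn : 40 ≤ n) {M : Subgroup (Matrix.ProjectiveSpecialLinearGroup (Fin n) F)}
    {F₀ : Subfield F} {r : ℕ} {P : GL (Fin n) F} (hr : r.Prime) (hF₀ : Fintype.card F = Nat.card F₀ ^ r)
    (hM : pre M ≤ subfieldSubgroup F₀ P) : OutM M := by
  have hq0 : 2 ≤ Nat.card F₀ := Finite.one_lt_card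
  have hr2 := hr.two_le
  haveI : Nonempty (Fin n) := ⟨⟨0, by omega⟩⟩
  refine outM_of (Dodd 1 n) (by rw [card_Dodd]; omega) fun e he => ?_
  obtain ⟨h1, h2, h3, -⟩ := mem_Dodd he
  have h4 : 2 * e ≤ r * e := Nat.mul_le_mul_right e hr2
  obtain ⟨u, hu⟩ := exists_ppd (q := Nat.card F₀) (e := r * e) hq0 (by omega) (by omega)
  have hP : Ppd (Fintype.card F) e u := by
    have := hu.pow r hr.ne_zero
    rw [← hF₀, Nat.gcd_comm, Nat.gcd_mul_right_right, Nat.mul_div_cancel_left _ hr.pos] at this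
    exact this
  refine ⟨h2, h3, u, hP, elt_of_card hM fun hd => ?_⟩
  have hF : ¬ u ∣ Nat.card F := by rw [Nat.card_eq_fintype_card]; exact hP.ndvd
  rcases subfield hP.prime hF hd with h1 | h1
  · rw [Nat.card_eq_fintype_card] at h1
    have := (hP.dvd_iff 1).mp (by rwa [pow_one])
    exact absurd (Nat.le_of_dvd one_pos this) (by omega)
  · have h2 := dvd_iff' hu h1
    rw [Fintype.card_fin] at h2
    omega

theorem class6 (hn : 40 ≤ n) {M : Subgroup (Matrix.ProjectiveSpecialLinearGroup (Fin n) F)}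
    {r k : ℕ} {R : Subgroup (GL (Fin n) F)} (hR : IsLinearSymplecticTypeData r R) (hro : Odd r)
    (hk : 1 ≤ k) (hnk : n = r ^ k) (hZ : Nat.card (Subgroup.center R) = r) (hc : Nat.card R = r ^ (1 + 2 * k))
    (hM : pre M ≤ subgroupNormalizer R) : OutM M := by
  haveI : Nonempty (Fin n) := ⟨⟨0, by omega⟩⟩
  refine outM_odd hn 1 fun e u hP ho h3 h4 _ h2 => elt_of_card hM fun hd => ?_
  rcases symplecticType hR.symplecticType hR.absIrred (Or.inl ⟨hro, hZ, hc⟩) hk hP.prime hd with h1 | h1 | h1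
  · have : r ≤ r ^ k := Nat.le_self_pow (by omega) r
    omega
  · rw [Nat.card_eq_fintype_card] at h1
    have := (hP.dvd_iff 1).mp (by rwa [pow_one])
    exact absurd (Nat.le_of_dvd one_pos this) (by omega)
  · rw [← hnk] at h1
    omega

theorem class6' (hn : 40 ≤ n) {M : Subgroup (Matrix.ProjectiveSpecialLinearGroup (Fin n) F)}
    {k : ℕ} {R : Subgroup (GL (Fin n) F)} (hR : IsLinearSymplecticTypeData 2 R)
    (hnk : n = 2 ^ k) (hZ : Nat.card (Subgroup.center R) = 4) (hc : Nat.card R = 2 ^ (2 + 2 * k))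
    (hM : pre M ≤ subgroupNormalizer R) : OutM M := by
  haveI : Nonempty (Fin n) := ⟨⟨0, by omega⟩⟩
  have hk2 : 2 ≤ k := by
    rcases k with _ | _ | k
    · rw [hnk] at hn; norm_num at hn
    · rw [hnk] at hn; norm_num at hn
    · omega
  refine outM_odd hn 1 fun e u hP ho h3 h4 _ h2 => elt_of_card hM fun hd => ?_
  rcases symplecticType hR.symplecticType hR.absIrred (Or.inr ⟨rfl, hZ, hc⟩) (by omega) hP.prime hd with h1 | h1 | h1
  · omega
  · rw [Nat.card_eq_fintype_card] at h1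
    have := (hP.dvd_iff 1).mp (by rwa [pow_one])
    exact absurd (Nat.le_of_dvd one_pos this) (by omega)
  · rw [← hnk] at h1
    omega

theorem class8_symp (hn : 40 ≤ n) {M : Subgroup (Matrix.ProjectiveSpecialLinearGroup (Fin n) F)}
    {f : (Fin n → F) → (Fin n → F) → F} (hf : IsSymplecticForm f)
    (hM : pre M ≤ similarityGroup f) : OutM M := by
  haveI : Nonempty (Fin n) := ⟨⟨0, by omega⟩⟩
  refine outM_odd hn 1 fun e u hP ho h3 h4 _ h2 x hx hxu => ?_
  have h1 := even_of_bilinear hP (by omega) (by rw [Fintype.card_fin]; omega) hxu hf.bilinear hf.nondegenerate (hM hx)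
  exact (Nat.not_even_iff_odd.mpr ho) h1

theorem class8_quad (hn : 40 ≤ n) {M : Subgroup (Matrix.ProjectiveSpecialLinearGroup (Fin n) F)}
    {Q : (Fin n → F) → F} (hQ : IsNondegenerateQuadraticForm Q)
    (hM : pre M ≤ quadSimilarityGroup Q) : OutM M := by
  haveI : Nonempty (Fin n) := ⟨⟨0, by omega⟩⟩
  refine outM_odd hn 1 fun e u hP ho h3 h4 _ h2 x hx hxu => ?_
  have h1 := even_of_quadratic hP (by omega) (by rw [Fintype.card_fin]; omega) hxu hQ (hM hx)
  exact (Nat.not_even_iff_odd.mpr ho) h1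

theorem class8_unit (hn : 40 ≤ n) {M : Subgroup (Matrix.ProjectiveSpecialLinearGroup (Fin n) F)}
    {σ : F ≃+* F} {f : (Fin n → F) → (Fin n → F) → F} (hf : IsUnitaryForm σ f)
    (hM : pre M ≤ similarityGroup f) : OutM M := by
  haveI : Nonempty (Fin n) := ⟨⟨0, by omega⟩⟩
  obtain ⟨p, k, hp, hpF, hF, hσ⟩ := exists_frobenius hf.ne_refl hf.involutive
  haveI : Fact p.Prime := ⟨hp⟩
  have hq0 : 2 ≤ p ^ k := by
    have h1 : 1 < Fintype.card F := Fintype.one_lt_card
    rcases Nat.eq_zero_or_pos k with h | h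
    · rw [hF, h] at h1; norm_num at h1
    · exact hp.two_le.trans (Nat.le_self_pow (by omega) p)
  refine outM_of (Dev n) (by rw [card_Dev]; omega) fun e he => ?_
  obtain ⟨heo, hne, hen⟩ := mem_Dev he
  obtain ⟨u, hP⟩ := exists_ppd (q := p ^ k) (e := 2 * e) hq0 (by omega) (by omega)
  have hPq : Ppd (Fintype.card F) e u := by
    rw [hF]
    have := hP.pow 2 two_ne_zero
    rwa [Nat.gcd_comm, Nat.gcd_mul_right_right, Nat.mul_div_cancel_left _ (by norm_num)] at this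
  refine ⟨hne, hen, u, hPq, fun x hx hxu => ?_⟩
  have h1 := odd_of_unitary hF hP (by omega) (by rw [Fintype.card_fin]; omega) hxu hσ hf (hM hx)
  exact (Nat.not_even_iff_odd.mpr h1) heo

/-- **BS-R1, `PSL_n(q)`, `n ≥ 40`.** -/
theorem geoD_psl' (hn : 40 ≤ n) {M : Subgroup (Matrix.ProjectiveSpecialLinearGroup (Fin n) F)} (hM : IsCoatom M) :
    OutD (.psl n (Fintype.card F)) M ∨ (∃ W : Submodule F (Fin n → F), W ≠ ⊥ ∧ W ≠ ⊤ ∧
      Cfsg.Agent.H304.PslT.pre M ≤ Cfsg.Geo.subspaceStabilizer W) ∨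
      Cfsg.Geo.InLinearResidualClass (Cfsg.Agent.H304.PslT.pre M) := by
  rcases H915.sl_cases (by omega : 3 ≤ n) (isMaximalIn_pre hM) with ⟨W, h0, h1, h⟩ | ⟨t, m, D, htm, hD, -, -, h⟩ |
    ⟨r, K, hr, hrn, hK, h⟩ | ⟨n₁, n₂, e, P, h1, h2, h3, -, h⟩ | ⟨F₀, r, P, hr, hF, h⟩ |
    ⟨r, k, p, e, R, hR, -, hro, -, hk, hnk, -, -, hZ, hc, h⟩ | ⟨k, R, hR, hnk, -, -, hZ, hc, h⟩ |
    ⟨m, t, e, P, hm, ht, hmt, h⟩ | ⟨f, hf, hne, h4, h⟩ | ⟨σ, f, hf, h⟩ | ⟨-, Q, hQ, h⟩ | h
  · exact Or.inr (Or.inl ⟨W, h0, h1, h.le.trans inf_le_left⟩)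
  · exact Or.inl (class2 hn htm hD (h.le.trans inf_le_left))
  · exact Or.inl (class3 hn hr hrn hK (h.le.trans inf_le_left))
  · exact Or.inl (class4 hn h1 h2 h3 (h.le.trans inf_le_left))
  · exact Or.inl (class5 hn hr hF (h.le.trans inf_le_left))
  · exact Or.inl (class6 hn hR hro hk hnk hZ hc (h.le.trans inf_le_left))
  · exact Or.inl (class6' hn hR hnk hZ hc (h.le.trans inf_le_left))
  · exact Or.inl (class7 hn hm ht hmt (h.le.trans inf_le_left))
  · exact Or.inl (class8_symp hn hf (h.le.trans inf_le_left))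
  · exact Or.inl (class8_unit hn hf (h.le.trans inf_le_left))
  · exact Or.inl (class8_quad hn hQ (h.le.trans inf_le_left))
  · exact Or.inr (Or.inr h)

/-- **BS-R1.** -/
theorem geoD_psl : ∃ N0 : ℕ, ∀ {F : Type*} [Field F] [Fintype F] {n : ℕ}, N0 ≤ n →
    ∀ {M : Subgroup (Matrix.ProjectiveSpecialLinearGroup (Fin n) F)}, IsCoatom M →
    OutD (.psl n (Fintype.card F)) M ∨ (∃ W : Submodule F (Fin n → F), W ≠ ⊥ ∧ W ≠ ⊤ ∧
      Cfsg.Agent.H304.PslT.pre M ≤ Cfsg.Geo.subspaceStabilizer W) ∨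
      Cfsg.Geo.InLinearResidualClass (Cfsg.Agent.H304.PslT.pre M) :=
  ⟨40, fun hn _ hM => geoD_psl' hn hM⟩

end Cfsg.Agent.H680.BS

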